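-- helper85: project OFX (S5977, helper95) / OFM (S5978), generic linear algebra for [TWISTP]:
-- an involutive isometry of a symmetric bilinear form has an orthogonal basis of eigenvectors.
import Mathlib

set_option autoImplicit false
open Matrix

universe u

namespace Cfsg.Agent.Lib.Helper85.OFX

section generic

variable {F : Type u} [Field F] {ι : Type} [Fintype ι] [DecidableEq ι]

/-- An involution preserving a symmetric bilinear form (char ≠ 2) has an orthogonal basis of
eigenvectors: the first `n₁` with eigenvalue `1`, the last `n₂` with eigenvalue `-1`. -/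
theorem exists_eigen_orthobasis (h2 : (2 : F) ≠ 0) (B : LinearMap.BilinForm F (ι → F))
    (hB : ∀ v w, B v w = B w v)
    (x : Matrix ι ι F) (hxx : x * x = 1) (hiso : ∀ v w, B (x *ᵥ v) (x *ᵥ w) = B v w) :
    ∃ (n₁ n₂ : ℕ) (b : Module.Basis (Fin n₁ ⊕ Fin n₂) F (ι → F)),
      (∀ k l, k ≠ l → B (b k) (b l) = 0) ∧ (∀ k, x *ᵥ b (Sum.inl k) = b (Sum.inl k)) ∧
      (∀ k, x *ᵥ b (Sum.inr k) = -b (Sum.inr k)) := by
  classical
  haveI : Invertible (2 : F) := invertibleOfNonzero h2
  set f : (ι → F) →ₗ[F] (ι → F) := Matrix.toLin' x with hf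
  have hfx : ∀ v, f v = x *ᵥ v := fun v => by rw [hf, Matrix.toLin'_apply]
  have hff : ∀ v, f (f v) = v := by
    intro v
    rw [hfx, hfx, Matrix.mulVec_mulVec, hxx, Matrix.one_mulVec]
  set V₁ : Submodule F (ι → F) := LinearMap.ker (f - 1) with hV₁
  set V₂ : Submodule F (ι → F) := LinearMap.ker (f + 1) with hV₂
  have hm₁ : ∀ v, v ∈ V₁ ↔ f v = v := by
    intro v
    rw [hV₁, LinearMap.mem_ker, LinearMap.sub_apply, Module.End.one_apply, sub_eq_zero]
  have hm₂ : ∀ v, v ∈ V₂ ↔ f v = -v := by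
    intro v
    rw [hV₂, LinearMap.mem_ker, LinearMap.add_apply, Module.End.one_apply, add_eq_zero_iff_eq_neg]
  have hc : IsCompl V₁ V₂ := by
    constructor
    · rw [Submodule.disjoint_def]
      intro v h1 h2'
      have e1 := (hm₁ v).mp h1
      have e2 := (hm₂ v).mp h2'
      have : (2 : F) • v = 0 := by
        rw [two_smul]
        nth_rewrite 1 [← e1]
        rw [e2]; exact neg_add_cancel v
      exact (smul_eq_zero.mp this).resolve_left h2
    · rw [codisjoint_iff, eq_top_iff]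
      intro v _
      have hv : v = (2 : F)⁻¹ • (v + f v) + (2 : F)⁻¹ • (v - f v) := by
        rw [← smul_add]
        have : v + f v + (v - f v) = (2 : F) • v := by rw [two_smul]; abel
        rw [this, smul_smul, inv_mul_cancel₀ h2, one_smul]
      rw [hv]
      apply Submodule.add_mem_sup
      · apply Submodule.smul_mem
        rw [hm₁, map_add, hff, add_comm]
      · apply Submodule.smul_mem
        rw [hm₂, map_sub, hff, neg_sub]
  obtain ⟨β₁, hβ₁⟩ := LinearMap.BilinForm.exists_orthogonal_basis (B := B.restrict V₁)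
    ⟨fun v w => hB _ _⟩
  obtain ⟨β₂, hβ₂⟩ := LinearMap.BilinForm.exists_orthogonal_basis (B := B.restrict V₂)
    ⟨fun v w => hB _ _⟩
  set b := (β₁.prod β₂).map (Submodule.prodEquivOfIsCompl V₁ V₂ hc) with hb
  have hbl : ∀ k, b (Sum.inl k) = (β₁ k : ι → F) := by
    intro k
    simp [hb]
  have hbr : ∀ k, b (Sum.inr k) = (β₂ k : ι → F) := by
    intro k
    simp [hb]
  have hcross : ∀ v ∈ V₁, ∀ w ∈ V₂, B v w = 0 := by
    intro v hv w hw
    have e := hiso v w
    rw [← hfx, ← hfx, (hm₁ v).mp hv, (hm₂ w).mp hw, map_neg] at e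
    have : (2 : F) * B v w = 0 := by
      rw [two_mul]
      nth_rewrite 1 [← e]
      exact neg_add_cancel _
    exact (mul_eq_zero.mp this).resolve_left h2
  refine ⟨_, _, b, ?_, ?_, ?_⟩
  · rintro (k | k) (l | l) hkl
    · rw [hbl, hbl]
      have := hβ₁ (show k ≠ l from fun h => hkl (by rw [h]))
      exact this
    · rw [hbl, hbr]
      exact hcross _ (β₁ k).2 _ (β₂ l).2
    · rw [hbr, hbl, hB]
      exact hcross _ (β₁ l).2 _ (β₂ k).2
    · rw [hbr, hbr]
      have := hβ₂ (show k ≠ l from fun h => hkl (by rw [h]))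
      exact this
  · intro k
    rw [hbl, ← hfx]
    exact (hm₁ _).mp (β₁ k).2
  · intro k
    rw [hbr, ← hfx]
    exact (hm₂ _).mp (β₂ k).2

/-- Parity of the `-1`-eigenspace from the determinant. -/
theorem even_of_det_eq_one (h2 : (2 : F) ≠ 0) (x : Matrix ι ι F) (hdet : x.det = 1) (n₁ n₂ : ℕ)
    (b : Module.Basis (Fin n₁ ⊕ Fin n₂) F (ι → F))
    (h₁ : ∀ k, x *ᵥ b (Sum.inl k) = b (Sum.inl k))
    (h₂ : ∀ k, x *ᵥ b (Sum.inr k) = -b (Sum.inr k)) : Even n₂ := by
  classical
  have hM : LinearMap.toMatrix b b (Matrix.toLin' x) =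
      Matrix.diagonal (Sum.elim (fun _ => (1 : F)) (fun _ => -1)) := by
    ext i j
    rw [LinearMap.toMatrix_apply, Matrix.toLin'_apply, Matrix.diagonal_apply]
    rcases j with j | j
    · rw [h₁, Module.Basis.repr_self, Finsupp.single_apply]
      by_cases hij : Sum.inl j = i
      · subst hij; simp
      · rw [if_neg hij, if_neg (fun h => hij h.symm)]
    · rw [h₂, map_neg, Module.Basis.repr_self, Finsupp.neg_apply, Finsupp.single_apply]
      by_cases hij : Sum.inr j = i
      · subst hij; simp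
      · rw [if_neg hij, if_neg (fun h => hij h.symm), neg_zero]
  have hd := LinearMap.det_toMatrix b (Matrix.toLin' x)
  rw [hM, LinearMap.det_toLin', hdet, Matrix.det_diagonal, Fintype.prod_sum_type] at hd
  simp only [Sum.elim_inl, Sum.elim_inr, Finset.prod_const_one, Finset.prod_const,
    Finset.card_univ, Fintype.card_fin, one_mul] at hd
  have hne : (-1 : F) ≠ 1 := by
    intro h
    apply h2
    have : (2 : F) = 1 + 1 := by norm_num
    rw [this]
    nth_rewrite 1 [← h]
    exact neg_add_cancel 1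
  exact (neg_one_pow_eq_one_iff_even hne).mp hd

/-- An involutive isometry of determinant one in even dimension: an orthogonal basis of
eigenvectors arranged in pairs with the same eigenvalue. -/
theorem exists_paired_eigenbasis (h2 : (2 : F) ≠ 0) (B : LinearMap.BilinForm F (ι → F))
    (hB : ∀ v w, B v w = B w v)
    (x : Matrix ι ι F) (hxx : x * x = 1) (hiso : ∀ v w, B (x *ᵥ v) (x *ᵥ w) = B v w)
    (hdet : x.det = 1) (hcard : Even (Fintype.card ι)) :
    ∃ (k₁ k₂ : ℕ) (c : Module.Basis ((Fin k₁ ⊕ Fin k₂) ⊕ (Fin k₁ ⊕ Fin k₂)) F (ι → F)),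
      k₁ + k₂ + (k₁ + k₂) = Fintype.card ι ∧
      (∀ k l, k ≠ l → B (c k) (c l) = 0) ∧
      (∀ t, x *ᵥ c (Sum.inl t) =
        Sum.elim (fun _ => (1 : F)) (fun _ => -1) t • c (Sum.inl t)) ∧
      (∀ t, x *ᵥ c (Sum.inr t) =
        Sum.elim (fun _ => (1 : F)) (fun _ => -1) t • c (Sum.inr t)) := by
  classical
  obtain ⟨n₁, n₂, b, horth, h₁, h₂⟩ := exists_eigen_orthobasis h2 B hB x hxx hiso
  have hn₂ : Even n₂ := even_of_det_eq_one h2 x hdet n₁ n₂ b h₁ h₂
  have hsum : n₁ + n₂ = Fintype.card ι := by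
    have e1 := Module.finrank_eq_card_basis b
    rw [Module.finrank_fintype_fun_eq_card, Fintype.card_sum, Fintype.card_fin,
      Fintype.card_fin] at e1
    exact e1.symm
  have hn₁ : Even n₁ := by
    rw [← hsum] at hcard
    exact (Nat.even_add.mp hcard).mpr hn₂
  obtain ⟨k₁, rfl⟩ := hn₁
  obtain ⟨k₂, rfl⟩ := hn₂
  let e : (Fin k₁ ⊕ Fin k₂) ⊕ (Fin k₁ ⊕ Fin k₂) ≃ Fin (k₁ + k₁) ⊕ Fin (k₂ + k₂) :=
    (Equiv.sumSumSumComm (Fin k₁) (Fin k₂) (Fin k₁) (Fin k₂)).trans
      (Equiv.sumCongr finSumFinEquiv finSumFinEquiv)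
  refine ⟨k₁, k₂, b.reindex e.symm, by omega, ?_, ?_, ?_⟩
  · intro k l hkl
    rw [Module.Basis.reindex_apply, Module.Basis.reindex_apply, Equiv.symm_symm]
    exact horth _ _ (fun h => hkl (e.injective h))
  · rintro (j | j)
    · rw [Module.Basis.reindex_apply, Equiv.symm_symm, Sum.elim_inl, one_smul]
      exact h₁ _
    · rw [Module.Basis.reindex_apply, Equiv.symm_symm, Sum.elim_inr, neg_one_smul]
      exact h₂ _
  · rintro (j | j)
    · rw [Module.Basis.reindex_apply, Equiv.symm_symm, Sum.elim_inl, one_smul]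
      exact h₁ _
    · rw [Module.Basis.reindex_apply, Equiv.symm_symm, Sum.elim_inr, neg_one_smul]
      exact h₂ _

end generic

end Cfsg.Agent.Lib.Helper85.OFX
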