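-- helper85: project OFX (S5977, helper95) / OFM (S5978): generic core of [TWISTP].
-- For an involutive isometry `x` of determinant one of a nondegenerate quadratic form `Q` on an
-- even-dimensional space over a finite field of odd order, and any `a`, there is a self-adjoint
-- `α'` with `α'² = a` commuting with `x`, and eigenvectors `u`, `u'` of `x` (same eigenvalue)
-- with `Q u · Q u' = a · (Q u)²`.
import Mathlib
import Cfsg.Agent.Lib.Helper85.OFX.Eigen

set_option autoImplicit false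
open Matrix

universe u

namespace Cfsg.Agent.Lib.Helper85.OFX

section core

variable {F : Type u} [Field F] [Fintype F] {ι : Type} [Fintype ι] [DecidableEq ι]

/-- A diagonal binary form over a finite field of odd order represents every element. -/
theorem exists_binary (hodd : Odd (Fintype.card F)) (e e' a : F) (he : e ≠ 0) (he' : e' ≠ 0) :
    ∃ s t : F, e * s ^ 2 + e' * t ^ 2 = a := by
  classical
  have hf : (Polynomial.C e * Polynomial.X ^ 2 + Polynomial.C 0 * Polynomial.X +
      Polynomial.C (-a) : Polynomial F).degree = 2 := Polynomial.degree_quadratic he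
  have hg : (Polynomial.C e' * Polynomial.X ^ 2 + Polynomial.C 0 * Polynomial.X +
      Polynomial.C 0 : Polynomial F).degree = 2 := Polynomial.degree_quadratic he'
  obtain ⟨s, t, hst⟩ := FiniteField.exists_root_sum_quadratic hf hg (Nat.odd_iff.mp hodd)
  refine ⟨s, t, ?_⟩
  simp only [Polynomial.eval_add, Polynomial.eval_mul, Polynomial.eval_C, Polynomial.eval_pow,
    Polynomial.eval_X, zero_mul, add_zero] at hst
  linear_combination hst

omit [Fintype F] in
theorem dot_aux (M G : Matrix ι ι F) (v w : ι → F) :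
    (M *ᵥ v) ⬝ᵥ (G *ᵥ w) = v ⬝ᵥ ((Mᵀ * G) *ᵥ w) := by
  rw [← Matrix.mulVec_mulVec, Matrix.dotProduct_mulVec v Mᵀ, Matrix.vecMul_transpose]

theorem twist_core (hodd : Odd (Fintype.card F))
    (Q : QuadraticForm F (ι → F)) (hQ : (QuadraticMap.polarBilin Q).Nondegenerate)
    (hι : 0 < Fintype.card ι) (hcard : Even (Fintype.card ι)) (a : F) (ha : ¬ IsSquare a)
    (x : Matrix ι ι F) (hx : ∀ v, Q (x *ᵥ v) = Q v) (hxx : x * x = 1) (hdet : x.det = 1) :
    ∃ (α' : Matrix ι ι F) (u u' : ι → F), α' * α' = a • (1 : Matrix ι ι F) ∧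
      (∀ v w, QuadraticMap.polar Q (α' *ᵥ v) w = QuadraticMap.polar Q v (α' *ᵥ w)) ∧
      Q u ≠ 0 ∧ Q u' ≠ 0 ∧ ¬ IsSquare (Q u * Q u') ∧ x * α' = α' * x ∧
      ∃ ε : F, ε ≠ 0 ∧ x *ᵥ u = ε • u ∧ x *ᵥ u' = ε • u' := by
  classical
  have h2 : (2 : F) ≠ 0 := by
    apply Ring.two_ne_zero
    intro hchar
    have := FiniteField.even_card_of_char_two hchar
    rw [Nat.odd_iff] at hodd
    omega
  have ha0 : a ≠ 0 := by
    rintro rfl
    exact ha ⟨0, by simp⟩
  set B : LinearMap.BilinForm F (ι → F) := QuadraticMap.polarBilin Q with hBdef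
  have hBp : ∀ v w, B v w = QuadraticMap.polar Q v w := fun v w => rfl
  have hB : ∀ v w, B v w = B w v := fun v w => by
    rw [hBp, hBp, QuadraticMap.polar_comm]
  have hiso : ∀ v w, B (x *ᵥ v) (x *ᵥ w) = B v w := by
    intro v w
    rw [hBp, hBp]
    unfold QuadraticMap.polar
    rw [← Matrix.mulVec_add, hx, hx, hx]
  obtain ⟨k₁, k₂, c, hk, horth, hl, hr⟩ :=
    exists_paired_eigenbasis h2 B hB x hxx hiso hdet hcard
  set ε : Fin k₁ ⊕ Fin k₂ → F := Sum.elim (fun _ => (1 : F)) (fun _ => -1) with hε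
  have hε0 : ∀ t, ε t ≠ 0 := by
    rintro (t | t)
    · simp [hε]
    · simp [hε]
  set D : (Fin k₁ ⊕ Fin k₂) ⊕ (Fin k₁ ⊕ Fin k₂) → F := fun k => B (c k) (c k) with hDdef
  have hD : ∀ k, D k ≠ 0 := by
    intro k hk0
    have hz : ∀ w, B (c k) w = 0 := by
      intro w
      have : B (c k) = 0 := by
        apply c.ext
        intro l
        by_cases hkl : k = l
        · subst hkl; exact hk0
        · exact horth k l hkl
      rw [this]; rfl
    exact c.ne_zero k (hQ.1 (c k) hz)
  have hDQ : ∀ k, D k = 2 * Q (c k) := fun k => by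
    rw [hDdef]; simp only [hBp]; rw [QuadraticMap.polar_self, nsmul_eq_mul]; norm_num
  have hst : ∀ t : Fin k₁ ⊕ Fin k₂, ∃ s tt : F,
      s ^ 2 + D (Sum.inl t) * D (Sum.inr t) * tt ^ 2 = a := by
    intro t
    obtain ⟨s, tt, h⟩ := exists_binary hodd 1 (D (Sum.inl t) * D (Sum.inr t)) a one_ne_zero
      (mul_ne_zero (hD _) (hD _))
    exact ⟨s, tt, by rw [← h]; ring⟩
  choose s tt hstt using hst
  -- change of basis
  set P : Matrix ι ((Fin k₁ ⊕ Fin k₂) ⊕ (Fin k₁ ⊕ Fin k₂)) F :=
    (Pi.basisFun F ι).toMatrix c with hP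
  set P' : Matrix ((Fin k₁ ⊕ Fin k₂) ⊕ (Fin k₁ ⊕ Fin k₂)) ι F :=
    c.toMatrix (Pi.basisFun F ι) with hP'
  have hPP' : P * P' = 1 := Module.Basis.toMatrix_mul_toMatrix_flip _ _
  have hP'P : P' * P = 1 := Module.Basis.toMatrix_mul_toMatrix_flip _ _
  have hPent : ∀ j k, P j k = c k j := fun j k => by
    rw [hP, Module.Basis.toMatrix_apply, Pi.basisFun_repr]
  set G : Matrix ι ι F := LinearMap.BilinForm.toMatrix' B with hG
  have hGram : Pᵀ * G * P = Matrix.diagonal D := by
    have h := LinearMap.BilinForm.toMatrix_mul_basis_toMatrix (b := Pi.basisFun F ι) c B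
    rw [LinearMap.BilinForm.toMatrix_basisFun] at h
    rw [h]
    ext k l
    rw [LinearMap.BilinForm.toMatrix_apply, Matrix.diagonal_apply]
    by_cases hkl : k = l
    · subst hkl; simp [hDdef]
    · rw [if_neg hkl]; exact horth k l hkl
  have hPx : x * P = P * Matrix.diagonal (Sum.elim ε ε) := by
    ext i k
    rw [Matrix.mul_diagonal, Matrix.mul_apply]
    simp only [hPent]
    have e : (x *ᵥ c k) i = ∑ j, x i j * c k j := rfl
    rw [← e]
    rcases k with t | t
    · rw [hl, Sum.elim_inl, Pi.smul_apply, smul_eq_mul, mul_comm]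
    · rw [hr, Sum.elim_inr, Pi.smul_apply, smul_eq_mul, mul_comm]
  have hP'x : P' * x = Matrix.diagonal (Sum.elim ε ε) * P' := by
    have h1 : P' * x * P = Matrix.diagonal (Sum.elim ε ε) := by
      rw [Matrix.mul_assoc, hPx, ← Matrix.mul_assoc, hP'P, Matrix.one_mul]
    calc P' * x = P' * x * (P * P') := by rw [hPP', Matrix.mul_one]
      _ = (P' * x * P) * P' := by simp only [Matrix.mul_assoc]
      _ = Matrix.diagonal (Sum.elim ε ε) * P' := by rw [h1]
  -- the model
  set A : Matrix ((Fin k₁ ⊕ Fin k₂) ⊕ (Fin k₁ ⊕ Fin k₂))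
      ((Fin k₁ ⊕ Fin k₂) ⊕ (Fin k₁ ⊕ Fin k₂)) F :=
    Matrix.fromBlocks (Matrix.diagonal s) (Matrix.diagonal (fun t => tt t * D (Sum.inr t)))
      (Matrix.diagonal (fun t => tt t * D (Sum.inl t))) (Matrix.diagonal (fun t => -s t))
    with hA
  have hAA : A * A = a • (1 : Matrix _ _ F) := by
    rw [hA, Matrix.fromBlocks_multiply]
    simp only [Matrix.diagonal_mul_diagonal, Matrix.diagonal_add]
    rw [← Matrix.fromBlocks_one, Matrix.fromBlocks_smul, smul_zero,
      Matrix.smul_one_eq_diagonal]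
    have z : (0 : Matrix (Fin k₁ ⊕ Fin k₂) (Fin k₁ ⊕ Fin k₂) F) =
        Matrix.diagonal (fun _ => (0 : F)) := by
      ext i j
      simp [Matrix.diagonal_apply]
    rw [z]
    congr 2
    · funext t; linear_combination hstt t
    · funext t; ring
    · funext t; ring
    · funext t; linear_combination hstt t
  have hDiag : Matrix.diagonal D = Matrix.fromBlocks (Matrix.diagonal (fun t => D (Sum.inl t))) 0 0
      (Matrix.diagonal (fun t => D (Sum.inr t))) := by
    rw [Matrix.fromBlocks_diagonal]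
    congr 1
    funext k
    rcases k with t | t <;> rfl
  have hDA : Matrix.diagonal D * A = Aᵀ * Matrix.diagonal D := by
    rw [hDiag, hA, Matrix.fromBlocks_transpose, Matrix.fromBlocks_multiply,
      Matrix.fromBlocks_multiply]
    simp only [Matrix.diagonal_transpose, Matrix.diagonal_mul_diagonal, Matrix.zero_mul,
      Matrix.mul_zero, add_zero, zero_add]
    congr 2
    · funext t; ring
    · funext t; ring
    · funext t; ring
    · funext t; ring
  have hEA : Matrix.diagonal (Sum.elim ε ε) * A = A * Matrix.diagonal (Sum.elim ε ε) := by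
    rw [← Matrix.fromBlocks_diagonal, hA, Matrix.fromBlocks_multiply,
      Matrix.fromBlocks_multiply]
    simp only [Matrix.diagonal_mul_diagonal, Matrix.zero_mul,
      Matrix.mul_zero, add_zero, zero_add]
    congr 2
    · funext t; ring
    · funext t; ring
    · funext t; ring
    · funext t; ring
  -- the structure
  set α' : Matrix ι ι F := P * A * P' with hα'
  have h1 : α' * α' = a • (1 : Matrix ι ι F) := by
    calc α' * α' = P * (A * (P' * P) * A) * P' := by
          rw [hα']; simp only [Matrix.mul_assoc]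
      _ = a • (1 : Matrix ι ι F) := by
          rw [hP'P, Matrix.mul_one, hAA, Matrix.mul_smul, Matrix.mul_one, Matrix.smul_mul, hPP']
  have hGeq : G = P'ᵀ * Matrix.diagonal D * P' := by
    rw [← hGram]
    have e1 : P'ᵀ * Pᵀ = 1 := by rw [← Matrix.transpose_mul, hPP', Matrix.transpose_one]
    calc G = (P'ᵀ * Pᵀ) * G * (P * P') := by rw [e1, hPP', Matrix.one_mul, Matrix.mul_one]
      _ = P'ᵀ * (Pᵀ * G * P) * P' := by simp only [Matrix.mul_assoc]
  have h2' : α'ᵀ * G = G * α' := by
    have e2 : Pᵀ * P'ᵀ = 1 := by rw [← Matrix.transpose_mul, hP'P, Matrix.transpose_one]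
    rw [hGeq, hα', Matrix.transpose_mul, Matrix.transpose_mul]
    calc P'ᵀ * (Aᵀ * Pᵀ) * (P'ᵀ * Matrix.diagonal D * P')
        = P'ᵀ * Aᵀ * (Pᵀ * P'ᵀ) * Matrix.diagonal D * P' := by simp only [Matrix.mul_assoc]
      _ = P'ᵀ * (Aᵀ * Matrix.diagonal D) * P' := by
          rw [e2, Matrix.mul_one]; simp only [Matrix.mul_assoc]
      _ = P'ᵀ * (Matrix.diagonal D * A) * P' := by rw [hDA]
      _ = P'ᵀ * Matrix.diagonal D * (P' * P) * A * P' := by
          rw [hP'P, Matrix.mul_one]; simp only [Matrix.mul_assoc]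
      _ = P'ᵀ * Matrix.diagonal D * P' * (P * A * P') := by simp only [Matrix.mul_assoc]
  have hBG : ∀ v w, B v w = v ⬝ᵥ G *ᵥ w := by
    intro v w
    have := Matrix.toBilin'_apply' G v w
    rw [hG, Matrix.toBilin'_toMatrix'] at this
    exact this
  have h3 : ∀ v w, QuadraticMap.polar Q (α' *ᵥ v) w = QuadraticMap.polar Q v (α' *ᵥ w) := by
    intro v w
    rw [← hBp, ← hBp, hBG, hBG, dot_aux, h2', Matrix.mulVec_mulVec]
  have h4 : x * α' = α' * x := by
    calc x * α' = (x * P) * A * P' := by rw [hα']; simp only [Matrix.mul_assoc]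
      _ = P * (Matrix.diagonal (Sum.elim ε ε) * A) * P' := by
          rw [hPx]; simp only [Matrix.mul_assoc]
      _ = P * A * (Matrix.diagonal (Sum.elim ε ε) * P') := by
          rw [hEA]; simp only [Matrix.mul_assoc]
      _ = α' * x := by rw [← hP'x, hα']; simp only [Matrix.mul_assoc]
  -- the two vectors
  have hτ : Nonempty (Fin k₁ ⊕ Fin k₂) := by
    rcases Nat.eq_zero_or_pos k₁ with h | h
    · have : 0 < k₂ := by omega
      exact ⟨Sum.inr ⟨0, this⟩⟩
    · exact ⟨Sum.inl ⟨0, h⟩⟩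
  obtain ⟨t₀⟩ := hτ
  set u := c (Sum.inl t₀) with hu
  set w := c (Sum.inr t₀) with hw
  have hQu : Q u ≠ 0 := by
    intro h
    apply hD (Sum.inl t₀)
    rw [hDQ, ← hu, h, mul_zero]
  have hQw : Q w ≠ 0 := by
    intro h
    apply hD (Sum.inr t₀)
    rw [hDQ, ← hw, h, mul_zero]
  obtain ⟨l, m, hlm⟩ := exists_binary hodd (Q u) (Q w) (a * Q u) hQu hQw
  have huw : QuadraticMap.polar Q u w = 0 := by
    rw [← hBp]
    exact horth _ _ (by simp)
  have hQu' : Q (l • u + m • w) = a * Q u := by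
    rw [QuadraticMap.map_add (⇑Q) (l • u) (m • w), QuadraticMap.map_smul, QuadraticMap.map_smul,
      QuadraticMap.polar_smul_left, QuadraticMap.polar_smul_right, huw]
    simp only [smul_eq_mul, mul_zero, add_zero]
    linear_combination hlm
  refine ⟨α', u, l • u + m • w, h1, h3, hQu, ?_, ?_, h4, ε t₀, hε0 t₀, hl t₀, ?_⟩
  · rw [hQu']
    exact mul_ne_zero ha0 hQu
  · rw [hQu']
    rintro ⟨z, hz⟩
    apply ha
    refine ⟨z / Q u, ?_⟩
    field_simp
    linear_combination hz
  · rw [Matrix.mulVec_add, Matrix.mulVec_smul, Matrix.mulVec_smul, hl t₀, hr t₀, smul_add,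
      smul_comm l, smul_comm m]

end core

end Cfsg.Agent.Lib.Helper85.OFX
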