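-- helper85: project OFX (S5977, helper95), package [TWISTP]: involutions of `Ω⁺_{2d}(q)`.
-- The generic core is `twist_core` (Cfsg/Agent/Lib/Helper85/OFX/TwistCore.lean) and
-- `twisted_generic` below (any nondegenerate `QuadraticForm` on `ι → F`, `|ι|` even).
import Mathlib
import Cfsg.Agent.Lib.Helper95.OFX.Defs
import Cfsg.Agent.Lib.Helper85.OFX.TwistCore
import Cfsg.Agent.Lib.Helper14.Forms
import Cfsg.Agent.Lib.Helper14.SOIndex

set_option autoImplicit false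
open scoped MatrixGroups
open Matrix

universe u

namespace Cfsg.Agent.Lib.Helper85.OFX

section generic

variable {F : Type u} [Field F] [Fintype F] {ι : Type} [Fintype ι] [DecidableEq ι]

/-- Generic form of [TWISTP]: for an involutive isometry `x` of determinant one there are a
self-adjoint `α'` with `α'² = a` and `u`, `u'` with `Q u · Q u'` a non-square such that `x`
commutes with `α'`, `R_u` and `R_u'`. -/
theorem twisted_generic (hodd : Odd (Fintype.card F))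
    (Q : QuadraticForm F (ι → F)) (hQ : (QuadraticMap.polarBilin Q).Nondegenerate)
    (hι : 0 < Fintype.card ι) (hcard : Even (Fintype.card ι)) (a : F) (ha : ¬ IsSquare a)
    (x : Matrix ι ι F) (hx : ∀ v, Q (x *ᵥ v) = Q v) (hxx : x * x = 1) (hdet : x.det = 1) :
    ∃ (α' : Matrix ι ι F) (u u' : ι → F), α' * α' = a • (1 : Matrix ι ι F) ∧
      (∀ v w, QuadraticMap.polar Q (α' *ᵥ v) w = QuadraticMap.polar Q v (α' *ᵥ w)) ∧
      Q u ≠ 0 ∧ Q u' ≠ 0 ∧ ¬ IsSquare (Q u * Q u') ∧ x * α' = α' * x ∧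
      x * Cfsg.reflectionMatrix ⇑Q u = Cfsg.reflectionMatrix ⇑Q u * x ∧
      x * Cfsg.reflectionMatrix ⇑Q u' = Cfsg.reflectionMatrix ⇑Q u' * x := by
  obtain ⟨α', u, u', h1, h3, hQu, hQu', hns, h4, ε, hε0, hxu, hxu'⟩ :=
    twist_core hodd Q hQ hι hcard a ha x hx hxx hdet
  refine ⟨α', u, u', h1, h3, hQu, hQu', hns, h4, ?_, ?_⟩
  · have := Cfsg.Agent.Lib.Helper14.refl_conj_matrix Q x hx u
    rw [hxu, Cfsg.Agent.Lib.Helper14.reflectionMatrix_smul Q u hε0] at this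
    exact this
  · have := Cfsg.Agent.Lib.Helper14.refl_conj_matrix Q x hx u'
    rw [hxu', Cfsg.Agent.Lib.Helper14.reflectionMatrix_smul Q u' hε0] at this
    exact this

end generic

/-- **[TWISTP]** -/
theorem pkgTwistP : Cfsg.Agent.Lib.Helper95.OFX.PkgTwistP.{u} := by
  intro F _ _ hodd d hd a ha x hxΩ hxx
  classical
  unfold Cfsg.Geo.omegaGL at hxΩ
  obtain ⟨g, hg, rfl⟩ := hxΩ
  have hdet : ((g : GL (Cfsg.Agent.Lib.Helper95.OFX.OI d) F) :
      Matrix (Cfsg.Agent.Lib.Helper95.OFX.OI d) (Cfsg.Agent.Lib.Helper95.OFX.OI d) F).det = 1 :=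
    (Cfsg.Agent.Lib.Helper14.mem_specialIsometryGroup_iff _ g).mp
      (Cfsg.Agent.Lib.Helper14.commutator_le_specialIsometryGroup _ hg)
  have hiso : ∀ v, Cfsg.Agent.Lib.Helper14.plusQF d F
      (((g : GL (Cfsg.Agent.Lib.Helper95.OFX.OI d) F) :
        Matrix (Cfsg.Agent.Lib.Helper95.OFX.OI d) (Cfsg.Agent.Lib.Helper95.OFX.OI d) F) *ᵥ v) =
      Cfsg.Agent.Lib.Helper14.plusQF d F v := by
    intro v
    have := Cfsg.Agent.Lib.Helper14.isom_preserves g v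
    have e := congrFun (Cfsg.Agent.Lib.Helper14.plusQF_coe d F)
    rw [e, e]
    exact this
  have hcard : Fintype.card (Cfsg.Agent.Lib.Helper95.OFX.OI d) = d + d := by
    simp [Cfsg.Agent.Lib.Helper95.OFX.OI]
  obtain ⟨α', u, u', h1, h3, hQu, hQu', hns, h4, h5, h6⟩ :=
    twisted_generic hodd (Cfsg.Agent.Lib.Helper14.plusQF d F)
      (Cfsg.Agent.Lib.Helper14.plusQF_nondegenerate d F) (by rw [hcard]; omega)
      (by rw [hcard]; exact ⟨d, rfl⟩) a ha _ hiso hxx hdet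
  rw [Cfsg.Agent.Lib.Helper14.plusQF_coe] at h3 hQu hQu' hns h5 h6
  set X : Matrix (Cfsg.Agent.Lib.Helper95.OFX.OI d) (Cfsg.Agent.Lib.Helper95.OFX.OI d) F :=
    ((g : GL (Cfsg.Agent.Lib.Helper95.OFX.OI d) F) :
      Matrix (Cfsg.Agent.Lib.Helper95.OFX.OI d) (Cfsg.Agent.Lib.Helper95.OFX.OI d) F) with hX
  have comm3 : ∀ M N : Matrix (Cfsg.Agent.Lib.Helper95.OFX.OI d)
      (Cfsg.Agent.Lib.Helper95.OFX.OI d) F, X * M = M * X → X * N = N * X →
      X * (M * N) = (M * N) * X := by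
    intro M N hM hN
    rw [← Matrix.mul_assoc, hM, Matrix.mul_assoc, hN, Matrix.mul_assoc]
  refine ⟨α', u, u', ⟨h1, h3⟩, hQu, hQu', hns, Or.inl h4, Or.inl ?_, Or.inl ?_, Or.inl ?_⟩
  · exact comm3 _ _ (comm3 _ _ h5 h4) h5
  · have e : Cfsg.Agent.Lib.Helper95.OFX.Rf d u' * Cfsg.Agent.Lib.Helper95.OFX.Rf d u * α' *
        (Cfsg.Agent.Lib.Helper95.OFX.Rf d u * Cfsg.Agent.Lib.Helper95.OFX.Rf d u') =
        ((Cfsg.Agent.Lib.Helper95.OFX.Rf d u' * Cfsg.Agent.Lib.Helper95.OFX.Rf d u) * α') *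
        (Cfsg.Agent.Lib.Helper95.OFX.Rf d u * Cfsg.Agent.Lib.Helper95.OFX.Rf d u') := rfl
    rw [e]
    exact comm3 _ _ (comm3 _ _ (comm3 _ _ h6 h5) h4) (comm3 _ _ h5 h6)
  · exact comm3 _ _ (comm3 _ _ h6 h4) h6

end Cfsg.Agent.Lib.Helper85.OFX
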